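import Cfsg.Agent.Lib.Helper72.STBST

/-!
# Ladder STB (Steinberg characters), rung ST2: the abstract core with a thin-panel hypothesis
-/

set_option autoImplicit false

namespace Cfsg.Agent.Lib.Helper72.STB

open Classical

theorem steinberg_abstract' {G : Type*} {Ω I A : Type*} [Group G] [Finite G] [Finite Ω] [Finite A]
    (φ : G →* Equiv.Perm Ω) (adj : I → Ω → Ω → Prop) (hadj : ∀ i, Equivalence (adj i))
    (hadjG : ∀ g i x y, adj i x y → adj i (φ g x) (φ g y))
    (c : Ω) (Ω₀ : Set Ω)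
    (hgen : ∀ Z : Ω → Prop, (∀ d i, (∀ d', adj i d d' → d' ≠ d → Z d') → Z d) →
      (∀ x ∈ Ω₀, Z x) → ∀ x, Z x)
    (hstab : ∀ g, φ g c = c → ∀ x ∈ Ω₀, φ g x ∈ Ω₀)
    (fl : A → Ω) (s : A → ℤˣ) (ι : I → A → A) (hιs : ∀ i a, s (ι i a) = - s a)
    (hιι : ∀ i a, ι i (ι i a) = a) (hιadj : ∀ i a, adj i (fl a) (fl (ι i a)))
    (a₀ : A) (ha₀ : fl a₀ ∈ Ω₀) (huniq : ∀ a, fl a ∈ Ω₀ → a = a₀)
    (htrans : ∀ x ∈ Ω₀, ∃ g, φ g c = c ∧ φ g (fl a₀) = x)
    (hg₀ : ∃ g, φ g c = fl a₀ ∨ ∃ i, adj i (fl a₀) (φ g c) ∧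
      ∀ y, adj i (fl a₀) y → y = fl a₀ ∨ y = φ g c) :
    ∃ χ : G → ℂ, Cfsg.IsIrrCharacter G χ ∧ χ 1 = (Nat.card Ω₀ : ℂ) := by
  have := Fintype.ofFinite Ω
  have := Fintype.ofFinite A
  have := Fintype.ofFinite G
  set ρ := stRep φ with hρ
  set K := stK φ adj hadjG with hK
  have hs0 : (((s a₀ : ℤˣ) : ℤ) : ℂ) ≠ 0 := Int.cast_ne_zero.2 (Units.ne_zero _)
  -- (1)
  have h1 : ∀ f ∈ K.toSubmodule, (∀ x ∈ Ω₀, f x = 0) → f = 0 := by
    intro f hf h0
    funext x
    refine hgen (fun d => f d = 0) ?_ h0 x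
    intro d i hd
    have hs := hf i d
    rw [Finset.sum_eq_single d] at hs
    · simpa [(hadj i).refl d] using hs
    · intro d' _ hne
      by_cases h : adj i d d'
      · rw [if_pos h]; exact hd d' h hne
      · rw [if_neg h]
    · intro h; exact absurd (Finset.mem_univ d) h
  -- (2)
  let e : Ω → ℂ := fun x => ∑ a, if fl a = x then (((s a : ℤˣ) : ℤ) : ℂ) else 0
  have heK : e ∈ K.toSubmodule := by
    intro i d
    have hswap : ∑ d', (if adj i d d' then e d' else 0)
        = ∑ a, (if adj i d (fl a) then (((s a : ℤˣ) : ℤ) : ℂ) else 0) := by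
      have : ∀ d', (if adj i d d' then e d' else 0) = ∑ a, (if fl a = d' then
          (if adj i d (fl a) then (((s a : ℤˣ) : ℤ) : ℂ) else 0) else 0) := by
        intro d'
        by_cases h : adj i d d'
        · rw [if_pos h]
          apply Finset.sum_congr rfl
          intro a _
          by_cases h2 : fl a = d'
          · rw [if_pos h2, if_pos h2, h2, if_pos h]
          · rw [if_neg h2, if_neg h2]
        · rw [if_neg h]
          symm
          apply Finset.sum_eq_zero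
          intro a _
          by_cases h2 : fl a = d'
          · rw [if_pos h2, h2, if_neg h]
          · rw [if_neg h2]
      simp only [this]
      rw [Finset.sum_comm]
      apply Finset.sum_congr rfl
      intro a _
      rw [Finset.sum_ite_eq]
      simp
    rw [hswap]
    set T := ∑ a, (if adj i d (fl a) then (((s a : ℤˣ) : ℤ) : ℂ) else 0) with hT
    have hinv : Function.Involutive (ι i) := hιι i
    have hneg : T = -T := by
      conv_lhs => rw [hT, ← Equiv.sum_comp (Function.Involutive.toPerm (ι i) hinv)]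
      rw [hT, ← Finset.sum_neg_distrib]
      apply Finset.sum_congr rfl
      intro a _
      have hiff : adj i d (fl (ι i a)) ↔ adj i d (fl a) :=
        ⟨fun h => (hadj i).trans h ((hadj i).symm (hιadj i a)),
          fun h => (hadj i).trans h (hιadj i a)⟩
      simp only [Function.Involutive.coe_toPerm, hiff, hιs]
      split_ifs <;> simp
    linear_combination (1 / 2 : ℂ) * hneg
  have he0 : ∀ x ∈ Ω₀, e x = if x = fl a₀ then (((s a₀ : ℤˣ) : ℤ) : ℂ) else 0 := by
    intro x hx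
    show ∑ a, _ = _
    rw [Finset.sum_eq_single a₀]
    · by_cases h : fl a₀ = x
      · rw [if_pos h, if_pos h.symm]
      · rw [if_neg h, if_neg (fun h' => h h'.symm)]
    · intro a _ hne
      rw [if_neg]
      intro h
      exact hne (huniq a (h ▸ hx))
    · intro h; exact absurd (Finset.mem_univ _) h
  -- (3)
  have h3 : ∀ x ∈ Ω₀, ∃ f ∈ K.toSubmodule, ∀ y ∈ Ω₀, f y = if y = x then 1 else 0 := by
    intro x hx
    obtain ⟨g, hgc, hgx⟩ := htrans x hx
    refine ⟨((((s a₀ : ℤˣ) : ℤ) : ℂ))⁻¹ • ρ g e,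
      K.toSubmodule.smul_mem _ (K.apply_mem_toSubmodule g heK), ?_⟩
    intro y hy
    have hginv : φ g⁻¹ c = c := by rw [map_inv, Equiv.Perm.inv_eq_iff_eq, hgc]
    have hy' : (φ g)⁻¹ y ∈ Ω₀ := by
      have := hstab g⁻¹ hginv y hy
      rwa [map_inv] at this
    rw [Pi.smul_apply, hρ, stRep_apply, he0 _ hy', smul_eq_mul]
    have hiff : (φ g)⁻¹ y = fl a₀ ↔ y = x := by rw [Equiv.Perm.inv_eq_iff_eq, hgx]
    simp only [hiff]
    split_ifs
    · exact inv_mul_cancel₀ hs0
    · simp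
  -- the dimension
  let R : K.toSubmodule →ₗ[ℂ] (Ω₀ → ℂ) :=
    { toFun := fun f x => f.1 x.1
      map_add' := fun f f' => rfl
      map_smul' := fun a f => rfl }
  have hRinj : Function.Injective R := by
    rw [← LinearMap.ker_eq_bot, LinearMap.ker_eq_bot']
    intro f hf
    apply Subtype.ext
    apply h1 f.1 f.2
    intro x hx
    exact congrFun hf ⟨x, hx⟩
  have hRsurj : Function.Surjective R := by
    intro t
    choose F hFK hF using h3
    refine ⟨∑ x : Ω₀, t x • (⟨F x.1 x.2, hFK x.1 x.2⟩ : K.toSubmodule), ?_⟩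
    funext y
    rw [map_sum, Finset.sum_apply, Finset.sum_eq_single y]
    · rw [map_smul, Pi.smul_apply]
      show t y • F y.1 y.2 y.1 = t y
      rw [hF y.1 y.2 y.1 y.2, if_pos rfl, smul_eq_mul, mul_one]
    · intro x _ hne
      rw [map_smul, Pi.smul_apply]
      show t x • F x.1 x.2 y.1 = 0
      rw [hF x.1 x.2 y.1 y.2, if_neg (fun h => hne (Subtype.ext h.symm)), smul_zero]
    · intro h; exact absurd (Finset.mem_univ _) h
  have hfin : Module.finrank ℂ K.toSubmodule = Nat.card Ω₀ := by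
    rw [LinearEquiv.finrank_eq (LinearEquiv.ofBijective R ⟨hRinj, hRsurj⟩),
      Module.finrank_fintype_fun_eq_card, Nat.card_eq_fintype_card]
  -- irreducibility
  set σ := K.toRepresentation with hσ
  have hσa : ∀ (g : G) (h : K.toSubmodule) (x : Ω), (σ g h).1 x = h.1 ((φ g)⁻¹ x) :=
    fun g h x => rfl
  let Bs : Subgroup G := (MulAction.stabilizer (Equiv.Perm Ω) c).comap φ
  have hBs : ∀ b, b ∈ Bs ↔ φ b c = c := fun b => Iff.rfl
  obtain ⟨g₀, hg₀⟩ := hg₀
  have L4 : ∀ N : Subrepresentation σ, N ≠ ⊥ →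
      ∃ h ∈ N.toSubmodule, (∀ b, φ b c = c → σ b h = h) ∧ h.1 c ≠ 0 := by
    intro N hN
    have hN' : N.toSubmodule ≠ ⊥ := fun h => hN (Subrepresentation.toSubmodule_injective h)
    obtain ⟨f, hfN, hf0⟩ := Submodule.exists_mem_ne_zero_of_ne_bot hN'
    obtain ⟨g, hg⟩ : ∃ g, f.1 (φ g c) ≠ 0 := by
      by_contra hcon
      push Not at hcon
      apply hf0
      apply Subtype.ext
      apply h1 f.1 f.2
      intro x hx
      obtain ⟨g, -, hgx⟩ := htrans x hx
      rcases hg₀ with hg₀ | ⟨i, hi1, hi2⟩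
      · have := hcon (g * g₀)
        rwa [map_mul, Equiv.Perm.mul_apply, hg₀, hgx] at this
      · have hs := f.2 i x
        rw [Finset.sum_eq_single x] at hs
        · simpa [(hadj i).refl x] using hs
        · intro d' _ hne
          by_cases h : adj i x d'
          · rw [if_pos h]
            have h' := hadjG g⁻¹ i _ _ h
            rw [← hgx] at h'
            have e1 : φ g⁻¹ (φ g (fl a₀)) = fl a₀ := by rw [map_inv]; simp
            rw [e1] at h'
            rcases hi2 _ h' with h2 | h2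
            · exfalso
              apply hne
              rw [map_inv, Equiv.Perm.inv_eq_iff_eq] at h2
              rw [h2, hgx]
            · rw [map_inv, Equiv.Perm.inv_eq_iff_eq] at h2
              rw [h2]
              have := hcon (g * g₀)
              rwa [map_mul, Equiv.Perm.mul_apply] at this
          · rw [if_neg h]
        · intro h; exact absurd (Finset.mem_univ x) h
    set f' := σ g⁻¹ f with hf'
    have hf'N : f' ∈ N.toSubmodule := N.apply_mem_toSubmodule g⁻¹ hfN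
    have hf'c : f'.1 c ≠ 0 := by
      rw [hf', hσa, map_inv, inv_inv]
      exact hg
    refine ⟨∑ b : Bs, σ b.1 f', N.toSubmodule.sum_mem (fun b _ => N.apply_mem_toSubmodule b.1 hf'N),
      ?_, ?_⟩
    · intro b₀ hb₀
      rw [map_sum]
      have h5 : ∀ b : Bs, σ b₀ (σ b.1 f') = σ ((Equiv.mulLeft (⟨b₀, (hBs b₀).2 hb₀⟩ : Bs)) b).1 f' := by
        intro b
        rw [Equiv.coe_mulLeft, Subgroup.coe_mul, map_mul]
        rfl
      rw [Finset.sum_congr rfl (fun b _ => h5 b)]
      exact Equiv.sum_comp (Equiv.mulLeft (⟨b₀, (hBs b₀).2 hb₀⟩ : Bs)) (fun b => σ b.1 f')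
    · have h6 : (∑ b : Bs, σ b.1 f').1 c = ∑ b : Bs, f'.1 c := by
        rw [Submodule.coe_sum, Finset.sum_apply]
        apply Finset.sum_congr rfl
        intro b _
        have h16 : (φ b.1)⁻¹ c = c := by
          rw [Equiv.Perm.inv_eq_iff_eq]
          exact ((hBs b.1).1 b.2).symm
        rw [hσa, h16]
      rw [h6, Finset.sum_const, nsmul_eq_mul]
      apply mul_ne_zero _ hf'c
      rw [Finset.card_univ]
      exact Nat.cast_ne_zero.2 Fintype.card_ne_zero
  have L5 : ∀ h : K.toSubmodule, (∀ b, φ b c = c → σ b h = h) →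
      ∀ x ∈ Ω₀, h.1 x = h.1 (fl a₀) := by
    intro h hB x hx
    obtain ⟨g, hgc, hgx⟩ := htrans x hx
    have hginv : φ g⁻¹ c = c := by rw [map_inv, Equiv.Perm.inv_eq_iff_eq, hgc]
    have h7 := hB g⁻¹ hginv
    have h8 : (σ g⁻¹ h).1 (fl a₀) = h.1 x := by
      rw [hσa, map_inv, inv_inv, hgx]
    rw [← h8, h7]
  have hirr : σ.IsIrreducible := by
    have hnt : Nontrivial (Subrepresentation σ) := by
      refine ⟨⊥, ⊤, fun h => ?_⟩
      have h9 : (⊥ : Submodule ℂ K.toSubmodule) = ⊤ := congrArg Subrepresentation.toSubmodule h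
      have h10 : (⟨e, heK⟩ : K.toSubmodule) ∈ (⊥ : Submodule ℂ K.toSubmodule) := by
        rw [h9]; trivial
      have h11 : e = 0 := congrArg Subtype.val ((Submodule.mem_bot ℂ).1 h10)
      have h12 := he0 _ ha₀
      rw [if_pos rfl, h11] at h12
      exact hs0 h12.symm
    refine ⟨fun M => ?_⟩
    by_cases hM : M = ⊥
    · exact Or.inl hM
    right
    by_contra hMt
    obtain ⟨M', hc⟩ := Cfsg.Agent.Lib.Helper4.exists_isCompl_subrep σ M
    have hM' : M' ≠ ⊥ := by
      rintro rfl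
      apply hMt
      apply Subrepresentation.toSubmodule_injective
      have h13 := hc.sup_eq_top
      have h14 : (⊥ : Subrepresentation σ).toSubmodule = ⊥ := rfl
      rw [h14, sup_bot_eq] at h13
      exact h13
    obtain ⟨h₁, hh₁, hB₁, hc₁⟩ := L4 M hM
    obtain ⟨h₂, hh₂, hB₂, hc₂⟩ := L4 M' hM'
    have hv : h₂.1 (fl a₀) • h₁ = h₁.1 (fl a₀) • h₂ := by
      rw [← sub_eq_zero]
      apply Subtype.ext
      apply h1 _ (h₂.1 (fl a₀) • h₁ - h₁.1 (fl a₀) • h₂).2
      intro x hx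
      show h₂.1 (fl a₀) * h₁.1 x - h₁.1 (fl a₀) * h₂.1 x = 0
      rw [L5 h₁ hB₁ x hx, L5 h₂ hB₂ x hx]
      ring
    have hmem : h₂.1 (fl a₀) • h₁ ∈ M.toSubmodule ⊓ M'.toSubmodule :=
      ⟨M.toSubmodule.smul_mem _ hh₁, hv ▸ M'.toSubmodule.smul_mem _ hh₂⟩
    rw [hc.inf_eq_bot] at hmem
    have h0 : h₂.1 (fl a₀) • h₁ = 0 := (Submodule.mem_bot ℂ).1 hmem
    rcases smul_eq_zero.1 h0 with h | h
    · have h15 : h₂.1 = 0 := h1 _ h₂.2 (fun x hx => by rw [L5 h₂ hB₂ x hx, h])
      exact hc₂ (by rw [h15]; rfl)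
    · exact hc₁ (by rw [h]; rfl)
  refine ⟨σ.character, Cfsg.Agent.Lib.Helper20.isIrrCharacter_of_rep σ hirr, ?_⟩
  rw [Representation.char_one, hfin]

end Cfsg.Agent.Lib.Helper72.STB
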