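import Cfsg.Agent.Lib.Helper50.STBDefs
import Cfsg.Agent.S0165

/-!
# Ladder STB (Steinberg characters), rung FIN
-/

set_option autoImplicit false

namespace Cfsg.Agent.Lib.Helper72.STB

open Cfsg.Agent.Lib.Helper50.STB

theorem final_of_degree {G : Type*} [Group G] [Finite G] (p : ℕ) [Fact p.Prime] (Q r : ℕ)
    (hQ : ∃ a, Q = p ^ a) (hG : Nat.card G = Q * r) (hr : ¬ p ∣ r) (χ : G → ℂ)
    (hχ : Cfsg.IsIrrCharacter G χ) (h1 : χ 1 = (Q : ℂ)) :
    ∀ P : Sylow p G, χ 1 = Nat.card P ∧ ∀ x : G, x ∈ P → x ≠ 1 → χ x = 0 := by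
  have hp : p.Prime := Fact.out
  obtain ⟨a, rfl⟩ := hQ
  obtain ⟨n, ρ, hirr, rfl⟩ := hχ
  have hr0 : r ≠ 0 := by
    rintro rfl
    exact hr (dvd_zero p)
  have hfac : (Nat.card G).factorization p = a := by
    rw [hG, Nat.factorization_mul (pow_ne_zero _ hp.ne_zero) hr0, Finsupp.add_apply,
      hp.factorization_pow, Finsupp.single_eq_same, Nat.factorization_eq_zero_of_not_dvd hr,
      add_zero]
  have hnot : ¬ p ^ (a + 1) ∣ Nat.card G := by
    intro hdvd
    rw [hG, pow_succ] at hdvd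
    exact hr (Nat.dvd_of_mul_dvd_mul_left (pow_pos hp.pos a) hdvd)
  have hdeg : Module.finrank ℂ (Fin n → ℂ) = p ^ a := by
    have h2 := Representation.char_one ρ
    rw [h1] at h2
    exact_mod_cast h2.symm
  intro P
  constructor
  · rw [h1, Sylow.card_eq_multiplicity, hfac]
  · intro x hx hx1
    have := hirr
    apply Cfsg.Agent.S0165.result ρ p a hp (by rw [hG]; exact dvd_mul_right _ _) hnot
      (by rw [hdeg]) x
    obtain ⟨k, hk⟩ := (IsPGroup.iff_orderOf.1 P.isPGroup' (⟨x, hx⟩ : P))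
    have hk' : orderOf x = p ^ k := by
      rw [← hk, Subgroup.orderOf_mk]
    rw [hk']
    have hk0 : k ≠ 0 := by
      rintro rfl
      rw [pow_zero, orderOf_eq_one_iff] at hk'
      exact hx1 hk'
    exact dvd_pow_self p hk0

/-- extracting the `p`-part from an order formula -/
theorem order_split (p : ℕ) [Fact p.Prime] (g z Q M : ℕ) (hQ : ∃ a, Q = p ^ a) (h : z * g = Q * M)
    (hz : ¬ p ∣ z) (hM : ¬ p ∣ M) : ∃ r, g = Q * r ∧ ¬ p ∣ r := by
  have hp : p.Prime := Fact.out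
  obtain ⟨a, rfl⟩ := hQ
  have hcop : Nat.Coprime (p ^ a) z :=
    Nat.Coprime.pow_left a ((Nat.Prime.coprime_iff_not_dvd hp).2 hz)
  have hdvd : p ^ a ∣ g := by
    apply hcop.dvd_of_dvd_mul_left
    rw [h]
    exact dvd_mul_right _ _
  obtain ⟨r, rfl⟩ := hdvd
  refine ⟨r, rfl, fun hpr => hM ?_⟩
  have h2 : z * r = M := by
    apply Nat.eq_of_mul_eq_mul_left (pow_pos hp.pos a)
    rw [← h]; ring
  rw [← h2]
  exact Dvd.dvd.mul_left hpr z

end Cfsg.Agent.Lib.Helper72.STB
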