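import Cfsg.Agent.Lib.Helper50.STBLines
import Cfsg.Agent.Lib.Helper50.SUCenter
import Cfsg.Agent.Lib.Helper17.UnitCoord

/-!
# Ladder STB (Steinberg characters), rung SU2: `SU_n(q)` is transitive on hyperbolic frames
-/

set_option autoImplicit false

namespace Cfsg.Agent.Lib.Helper72.STB

open Cfsg.Agent.Lib.Helper50.STB Cfsg.Agent.Lib.Helper50.Herm Cfsg.Agent.Lib.Helper50 Matrix

section general

variable {F V : Type*} [Field F] [AddCommGroup V] [Module F V]

private lemma su2_perp_smul (P : Polar F V) {x y : V} (a b : F) (h : y ∈ P.perp x) :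
    b • y ∈ P.perp (a • x) :=
  P.symm ((P.perp _).smul_mem a (P.symm ((P.perp x).smul_mem b h)))

/-- rescaling a frame -/
def su2_scale {P : Polar F V} {m : ℕ} (Φ : Frame P m) (a c : Fin m → F) (ha : ∀ i, a i ≠ 0)
    (hc : ∀ i, c i ≠ 0) : Frame P m where
  e i := a i • Φ.e i
  f i := c i • Φ.f i
  sing_e i := P.sing_smul _ (Φ.sing_e i)
  sing_f i := P.sing_smul _ (Φ.sing_f i)
  ee i j := su2_perp_smul P _ _ (Φ.ee i j)
  ff i j := su2_perp_smul P _ _ (Φ.ff i j)
  ef i j hij := su2_perp_smul P _ _ (Φ.ef i j hij)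
  ne i h := by
    have h1 := su2_perp_smul P (a i)⁻¹ (c i)⁻¹ h
    rw [smul_smul, smul_smul, inv_mul_cancel₀ (ha i), inv_mul_cancel₀ (hc i), one_smul,
      one_smul] at h1
    exact Φ.ne i h1

/-- the determinant of a matrix which is diagonal with respect to some basis -/
lemma su2_det_diag {ι : Type*} [Fintype ι] [DecidableEq ι] [Nonempty ι] (n : ℕ)
    (x : ι → (Fin n → F)) (hx : LinearIndependent F x) (hcard : Fintype.card ι = n)
    (M : Matrix (Fin n) (Fin n) F) (μ : ι → F) (hM : ∀ j, M *ᵥ x j = μ j • x j) :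
    M.det = ∏ j, μ j := by
  let b := basisOfLinearIndependentOfCardEqFinrank hx (by simp [hcard])
  have hb : ∀ j, b j = x j := fun j => by
    simp [b]
  have h1 : LinearMap.toMatrix b b (Matrix.toLin' M) = Matrix.diagonal μ := by
    ext i j
    rw [LinearMap.toMatrix_apply, Matrix.toLin'_apply, hb, hM, ← hb, map_smul,
      Module.Basis.repr_self, Finsupp.smul_apply, Finsupp.single_apply, Matrix.diagonal_apply]
    by_cases h : i = j
    · subst h; simp
    · rw [if_neg h, if_neg (fun h' => h h'.symm)]; simp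
  rw [← LinearMap.det_toLin' M, ← LinearMap.det_toMatrix b, h1, Matrix.det_diagonal]

end general

section field

variable {K : Type*} [Field K] [Fintype K] {q : ℕ}

theorem su2_exists_pow (hK : Fintype.card K = q ^ 2) (c : K) (hc : c ^ (q + 1) = 1) :
    ∃ l : K, l ≠ 0 ∧ l ^ (q - 1) = c := by
  have h2 := two_le_q hK
  have hc0 : c ≠ 0 := by
    rintro rfl
    simp at hc
  have hle : (powMonoidHom (q - 1) : Kˣ →* Kˣ).range ≤ (powMonoidHom (q + 1) : Kˣ →* Kˣ).ker := by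
    rintro _ ⟨u, rfl⟩
    rw [MonoidHom.mem_ker, powMonoidHom_apply, powMonoidHom_apply, ← pow_mul, ← card_units_K hK]
    exact pow_card_eq_one'
  have hcard : Nat.card (powMonoidHom (q - 1) : Kˣ →* Kˣ).range
      = Nat.card (powMonoidHom (q + 1) : Kˣ →* Kˣ).ker := by
    rw [IsCyclic.card_powMonoidHom_ker, IsCyclic.card_powMonoidHom_range, card_units_K hK,
      Nat.gcd_eq_right (Dvd.intro _ rfl), Nat.gcd_eq_right (Dvd.intro_left _ rfl),
      Nat.mul_div_cancel_left _ (by omega)]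
  have heq := Subgroup.eq_of_le_of_card_ge hle hcard.ge
  have hmem : Units.mk0 c hc0 ∈ (powMonoidHom (q + 1) : Kˣ →* Kˣ).ker := by
    rw [MonoidHom.mem_ker, powMonoidHom_apply]
    ext
    simpa using hc
  rw [← heq] at hmem
  obtain ⟨u, hu⟩ := hmem
  refine ⟨u.1, u.ne_zero, ?_⟩
  simpa using congrArg Units.val hu

end field

section unitary

variable {F : Type*} [Field F] [Fintype F] {q : ℕ}

lemma su2_mem_perp (hF : Fintype.card F = q ^ 2) (n : ℕ) (x y : Fin n → F) :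
    y ∈ (polSU n F q hF).perp x ↔ Cfsg.hermForm n F q y x = 0 := Iff.rfl

lemma su2_sing (hF : Fintype.card F = q ^ 2) (n : ℕ) (x : Fin n → F) :
    (polSU n F q hF).sing x ↔ Cfsg.hermForm n F q x x = 0 := Iff.rfl

lemma su2_gram (hF : Fintype.card F = q ^ 2) (n m : ℕ) (Φ Φ' : Frame (polSU n F q hF) m)
    (h : ∀ i, Cfsg.hermForm n F q (Φ'.f i) (Φ'.e i) = Cfsg.hermForm n F q (Φ.f i) (Φ.e i))
    (j k : Fin m ⊕ Fin m) :
    Cfsg.hermForm n F q (Sum.elim Φ'.e Φ'.f j) (Sum.elim Φ'.e Φ'.f k)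
      = Cfsg.hermForm n F q (Sum.elim Φ.e Φ.f j) (Sum.elim Φ.e Φ.f k) := by
  have hh := isHerm_std hF n
  have hfe : ∀ i k, Cfsg.hermForm n F q (Φ'.f i) (Φ'.e k)
      = Cfsg.hermForm n F q (Φ.f i) (Φ.e k) := by
    intro i k
    by_cases hik : k = i
    · subst hik; exact h k
    · rw [(su2_mem_perp hF n _ _).1 (Φ'.ef k i hik), (su2_mem_perp hF n _ _).1 (Φ.ef k i hik)]
  rcases j with i | i <;> rcases k with k | k
  · simp only [Sum.elim_inl]
    rw [(su2_mem_perp hF n _ _).1 (Φ'.ee k i), (su2_mem_perp hF n _ _).1 (Φ.ee k i)]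
  · simp only [Sum.elim_inl, Sum.elim_inr]
    rw [hh.symm (Φ'.f k) (Φ'.e i), hh.symm (Φ.f k) (Φ.e i), hfe]
  · simp only [Sum.elim_inl, Sum.elim_inr]
    exact hfe i k
  · simp only [Sum.elim_inr]
    rw [(su2_mem_perp hF n _ _).1 (Φ'.ff k i), (su2_mem_perp hF n _ _).1 (Φ.ff k i)]

lemma su2_witt (hF : Fintype.card F = q ^ 2) (n m : ℕ) (Φ Φ' : Frame (polSU n F q hF) m)
    (h : ∀ i, Cfsg.hermForm n F q (Φ'.f i) (Φ'.e i) = Cfsg.hermForm n F q (Φ.f i) (Φ.e i)) :
    ∃ A : ↥(Cfsg.GU n F q), ∀ i,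
      ((A : Matrix.GeneralLinearGroup (Fin n) F) : Matrix (Fin n) (Fin n) F) *ᵥ Φ.e i = Φ'.e i ∧
      ((A : Matrix.GeneralLinearGroup (Fin n) F) : Matrix (Fin n) (Fin n) F) *ᵥ Φ.f i = Φ'.f i := by
  obtain ⟨A, hA⟩ := Cfsg.Agent.Lib.Helper17.gu_witt_frame hF n (Sum.elim Φ.e Φ.f)
    (Sum.elim Φ'.e Φ'.f) Φ.linearIndependent Φ'.linearIndependent (su2_gram hF n m Φ Φ' h)
  exact ⟨A, fun i => ⟨hA (Sum.inl i), hA (Sum.inr i)⟩⟩

/-- the vector `δ_{2i} + s δ_{2i+1}` -/
def su2_vec (n : ℕ) (s : F) (i : Fin (n / 2)) : Fin n → F :=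
  Pi.single (⟨2 * i.val, by have := i.2; omega⟩ : Fin n) 1 +
    s • Pi.single (⟨2 * i.val + 1, by have := i.2; omega⟩ : Fin n) 1

lemma su2_vec_herm (hF : Fintype.card F = q ^ 2) (n : ℕ) (s t : F) (i k : Fin (n / 2)) :
    Cfsg.hermForm n F q (su2_vec n s i) (su2_vec n t k) = if i = k then 1 + s * t ^ q else 0 := by
  have hh := isHerm_std hF n
  have hq2 := two_le_q hF
  unfold su2_vec
  rw [hh.add_left, hh.add_right, hh.add_right, hh.smul_left, hh.smul_left, hh.smul_right,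
    hh.smul_right, herm_single (by omega), herm_single (by omega), herm_single (by omega),
    herm_single (by omega)]
  simp only [Fin.mk.injEq]
  by_cases h : i = k
  · subst h
    have e2 : ¬ (2 * i.val = 2 * i.val + 1) := by omega
    have e3 : ¬ (2 * i.val + 1 = 2 * i.val) := by omega
    simp only [if_true, if_neg e2, if_neg e3]
    ring
  · have hv : i.val ≠ k.val := fun h' => h (Fin.ext h')
    have e1 : ¬ (2 * i.val = 2 * k.val) := by omega
    have e2 : ¬ (2 * i.val = 2 * k.val + 1) := by omega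
    have e3 : ¬ (2 * i.val + 1 = 2 * k.val) := by omega
    have e4 : ¬ (2 * i.val + 1 = 2 * k.val + 1) := by omega
    simp only [if_neg e1, if_neg e2, if_neg e3, if_neg e4, if_neg h]
    ring

/-- the standard frame -/
def su2_std (hF : Fintype.card F = q ^ 2) (n : ℕ) (ζ ζ' : F) (h1 : 1 + ζ * ζ ^ q = 0)
    (h2 : 1 + ζ' * ζ' ^ q = 0) (h3 : 1 + ζ' * ζ ^ q ≠ 0) : Frame (polSU n F q hF) (n / 2) where
  e := su2_vec n ζ
  f := su2_vec n ζ'
  sing_e i := by rw [su2_sing, su2_vec_herm hF, if_pos rfl, h1]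
  sing_f i := by rw [su2_sing, su2_vec_herm hF, if_pos rfl, h2]
  ee i j := by
    rw [su2_mem_perp, su2_vec_herm hF]
    split_ifs
    · exact h1
    · rfl
  ff i j := by
    rw [su2_mem_perp, su2_vec_herm hF]
    split_ifs
    · exact h2
    · rfl
  ef i j hij := by rw [su2_mem_perp, su2_vec_herm hF, if_neg (fun h => hij h.symm)]
  ne i := by
    rw [su2_mem_perp, su2_vec_herm hF, if_pos rfl]
    exact h3

lemma su2_exists_zeta (hF : Fintype.card F = q ^ 2) :
    ∃ ζ ζ' : F, 1 + ζ * ζ ^ q = 0 ∧ 1 + ζ' * ζ' ^ q = 0 ∧ 1 + ζ' * ζ ^ q ≠ 0 := by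
  have hneg : (-1 : F) ^ q = -1 := by
    have := map_neg (frobQ hF) 1
    rwa [map_one, frobQ_apply] at this
  obtain ⟨ζ, -, hζ⟩ := exists_norm_eq hF (-1) (neg_ne_zero.2 one_ne_zero) hneg
  obtain ⟨μ, hμ, hμ2⟩ := exists_mu hF
  have hμ1 : μ ≠ 1 := by
    rintro rfl
    exact hμ2 (one_pow 2)
  have hζ' : ζ * ζ ^ q = -1 := by rw [← pow_succ', hζ]
  have hμ' : μ * μ ^ q = 1 := by rw [← pow_succ', hμ]
  refine ⟨ζ, μ * ζ, ?_, ?_, ?_⟩
  · rw [hζ']; ring
  · rw [mul_pow]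
    linear_combination (ζ * ζ ^ q) * hμ' + hζ'
  · intro h
    apply hμ1
    linear_combination -h + μ * hζ'

theorem su_ft (n : ℕ) (hn : 2 ≤ n) (F : Type*) [Field F] [Fintype F] (q : ℕ)
    (hF : Fintype.card F = q ^ 2) :
    ∃ Φ : Frame (polSU n F q hF) (n / 2), FT (polSU n F q hF) Φ (rhoSU n F q) := by
  have hh := isHerm_std hF n
  have hq2 := two_le_q hF
  obtain ⟨ζ, ζ', h1, h2, h3⟩ := su2_exists_zeta hF
  set Φ := su2_std hF n ζ ζ' h1 h2 h3 with hΦ
  refine ⟨Φ, ?_⟩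
  intro Φ'
  suffices hB : ∃ B : Matrix (Fin n) (Fin n) F, B.det = 1 ∧
      (∀ u v, Cfsg.hermForm n F q (B *ᵥ u) (B *ᵥ v) = Cfsg.hermForm n F q u v) ∧
      ∀ i, B *ᵥ Φ.e i ∈ Submodule.span F {Φ'.e i} ∧ B *ᵥ Φ.f i ∈ Submodule.span F {Φ'.f i} by
    obtain ⟨B, hdet, hpres, hB⟩ := hB
    refine ⟨⟨⟨B, hdet⟩, hpres⟩, fun i => ?_⟩
    rw [rhoSU, linRep_apply, linRep_apply]
    exact hB i
  have hne : ∀ i, Cfsg.hermForm n F q (Φ.f i) (Φ.e i) ≠ 0 := fun i => Φ.ne i
  have hne' : ∀ i, Cfsg.hermForm n F q (Φ'.f i) (Φ'.e i) ≠ 0 := fun i => Φ'.ne i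
  set Ψ := su2_scale Φ' (fun _ => 1)
    (fun i => Cfsg.hermForm n F q (Φ.f i) (Φ.e i) * (Cfsg.hermForm n F q (Φ'.f i) (Φ'.e i))⁻¹)
    (fun _ => one_ne_zero) (fun i => mul_ne_zero (hne i) (inv_ne_zero (hne' i))) with hΨ
  have hΨe : ∀ i, Ψ.e i = (1 : F) • Φ'.e i := fun i => rfl
  have hΨf : ∀ i, Ψ.f i = (Cfsg.hermForm n F q (Φ.f i) (Φ.e i) *
      (Cfsg.hermForm n F q (Φ'.f i) (Φ'.e i))⁻¹) • Φ'.f i := fun i => rfl
  have hΨg : ∀ i, Cfsg.hermForm n F q (Ψ.f i) (Ψ.e i) = Cfsg.hermForm n F q (Φ.f i) (Φ.e i) := by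
    intro i
    rw [hΨe, hΨf, hh.smul_left, hh.smul_right, one_pow, one_mul, mul_assoc,
      inv_mul_cancel₀ (hne' i), mul_one]
  obtain ⟨A₁, hA₁⟩ := su2_witt hF n _ Φ Ψ hΨg
  set δ := ((A₁ : Matrix.GeneralLinearGroup (Fin n) F) : Matrix (Fin n) (Fin n) F).det with hδ
  have hδ1 : δ ^ (q + 1) = 1 := GU_det_norm hF n A₁.1 A₁.2
  have hδ0 : δ ≠ 0 := by
    intro h
    rw [h] at hδ1
    simp at hδ1
  have hspan_e : ∀ i (c : F), c • Ψ.e i ∈ Submodule.span F {Φ'.e i} := fun i c => by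
    rw [hΨe]
    exact Submodule.smul_mem _ _ (Submodule.smul_mem _ _ (Submodule.mem_span_singleton_self _))
  have hspan_f : ∀ i (c : F), c • Ψ.f i ∈ Submodule.span F {Φ'.f i} := fun i c => by
    rw [hΨf]
    exact Submodule.smul_mem _ _ (Submodule.smul_mem _ _ (Submodule.mem_span_singleton_self _))
  rcases Nat.even_or_odd' n with ⟨m, hm | hm⟩
  · -- `n` even
    obtain ⟨l, hl0, hl⟩ := su2_exists_pow hF δ hδ1
    have hlq : l ^ q = δ * l := by
      rw [← hl, ← pow_succ]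
      congr 1
      omega
    let i0 : Fin (n / 2) := ⟨0, by omega⟩
    let a : Fin (n / 2) → F := fun i => if i = i0 then l else 1
    have ha : ∀ i, a i ≠ 0 := by
      intro i
      simp only [a]
      split_ifs
      · exact hl0
      · exact one_ne_zero
    set Ψ' := su2_scale Ψ a (fun i => ((a i) ^ q)⁻¹) ha
      (fun i => inv_ne_zero (pow_ne_zero _ (ha i))) with hΨ'
    have hΨ'e : ∀ i, Ψ'.e i = a i • Ψ.e i := fun i => rfl
    have hΨ'f : ∀ i, Ψ'.f i = ((a i) ^ q)⁻¹ • Ψ.f i := fun i => rfl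
    have hΨ'g : ∀ i, Cfsg.hermForm n F q (Ψ'.f i) (Ψ'.e i)
        = Cfsg.hermForm n F q (Φ.f i) (Φ.e i) := by
      intro i
      rw [hΨ'e, hΨ'f, hh.smul_left, hh.smul_right, ← mul_assoc,
        inv_mul_cancel₀ (pow_ne_zero _ (ha i)), one_mul, hΨg]
    obtain ⟨A₂, hA₂⟩ := su2_witt hF n _ Φ Ψ' hΨ'g
    have hM : ∀ j : Fin (n / 2) ⊕ Fin (n / 2),
        (((A₁⁻¹ * A₂ : ↥(Cfsg.GU n F q)) : Matrix.GeneralLinearGroup (Fin n) F) :
          Matrix (Fin n) (Fin n) F) *ᵥ (Sum.elim Φ.e Φ.f j)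
        = (Sum.elim a (fun i => ((a i) ^ q)⁻¹) j) • Sum.elim Φ.e Φ.f j := by
      rintro (i | i)
      · simp only [Sum.elim_inl]
        rw [Cfsg.Agent.Lib.Helper17.gu_coe_mul_mulVec, (hA₂ i).1, hΨ'e, ← (hA₁ i).1,
          Matrix.mulVec_smul, Cfsg.Agent.Lib.Helper17.gu_inv_mulVec]
      · simp only [Sum.elim_inr]
        rw [Cfsg.Agent.Lib.Helper17.gu_coe_mul_mulVec, (hA₂ i).2, hΨ'f, ← (hA₁ i).2,
          Matrix.mulVec_smul, Cfsg.Agent.Lib.Helper17.gu_inv_mulVec]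
    have : Nonempty (Fin (n / 2) ⊕ Fin (n / 2)) := ⟨Sum.inl i0⟩
    have hdetM := su2_det_diag n (Sum.elim Φ.e Φ.f) Φ.linearIndependent
      (by simp only [Fintype.card_sum, Fintype.card_fin]; omega) _ _ hM
    rw [Fintype.prod_sum_type] at hdetM
    simp only [Sum.elim_inl, Sum.elim_inr] at hdetM
    have hpa : ∏ i, a i = l := by
      simp only [a]
      rw [Finset.prod_ite_eq']
      simp
    have hpa' : ∏ i, ((a i) ^ q)⁻¹ = (l ^ q)⁻¹ := by
      rw [Finset.prod_inv_distrib, Finset.prod_pow, hpa]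
    have hdet2 : ((A₂ : Matrix.GeneralLinearGroup (Fin n) F) : Matrix (Fin n) (Fin n) F).det
        = 1 := by
      have h5 : ((A₂ : Matrix.GeneralLinearGroup (Fin n) F) : Matrix (Fin n) (Fin n) F)
          = ((A₁ : Matrix.GeneralLinearGroup (Fin n) F) : Matrix (Fin n) (Fin n) F) *
            (((A₁⁻¹ * A₂ : ↥(Cfsg.GU n F q)) : Matrix.GeneralLinearGroup (Fin n) F) :
              Matrix (Fin n) (Fin n) F) := by
        rw [← Units.val_mul, ← Subgroup.coe_mul, mul_inv_cancel_left]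
      rw [h5, Matrix.det_mul, hdetM, hpa, hpa', ← hδ, hlq]
      field_simp
    refine ⟨_, hdet2, fun u v => A₂.2 u v, fun i => ⟨?_, ?_⟩⟩
    · rw [(hA₂ i).1, hΨ'e]
      exact hspan_e i (a i)
    · rw [(hA₂ i).2, hΨ'f]
      exact hspan_f i _
  · -- `n` odd
    let last : Fin n := ⟨n - 1, by omega⟩
    let d : Fin n → F := fun j => if j = last then δ⁻¹ else 1
    have hd : ∀ j, d j * d j ^ q = 1 := by
      intro j
      simp only [d]
      split_ifs
      · rw [← pow_succ', inv_pow, hδ1, inv_one]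
      · simp
    have hDv : ∀ (s : F) (i : Fin (n / 2)),
        Matrix.diagonal d *ᵥ su2_vec n s i = su2_vec n s i := by
      intro s i
      funext j
      rw [Matrix.mulVec_diagonal]
      by_cases hj : j = last
      · have hi := i.2
        have e1 : (⟨2 * i.val, by omega⟩ : Fin n) ≠ j := by
          rw [hj]
          intro h
          have := congrArg Fin.val h
          simp only [last] at this
          omega
        have e2 : (⟨2 * i.val + 1, by omega⟩ : Fin n) ≠ j := by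
          rw [hj]
          intro h
          have := congrArg Fin.val h
          simp only [last] at this
          omega
        have : su2_vec n s i j = 0 := by
          simp only [su2_vec, Pi.add_apply, Pi.smul_apply, Pi.single_apply, if_neg e1.symm,
            if_neg e2.symm]
          simp
        rw [this, mul_zero]
      · simp [d, hj]
    refine ⟨((A₁ : Matrix.GeneralLinearGroup (Fin n) F) : Matrix (Fin n) (Fin n) F) *
      Matrix.diagonal d, ?_, ?_, ?_⟩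
    · have hpd : ∏ j, d j = δ⁻¹ := by
        simp only [d]
        rw [Finset.prod_ite_eq']
        simp
      rw [Matrix.det_mul, Matrix.det_diagonal, ← hδ, hpd, mul_inv_cancel₀ hδ0]
    · intro u v
      rw [← Matrix.mulVec_mulVec, ← Matrix.mulVec_mulVec,
        Cfsg.Agent.Lib.Helper17.gu_hermForm A₁]
      unfold Cfsg.hermForm
      apply Finset.sum_congr rfl
      intro j _
      rw [Matrix.mulVec_diagonal, Matrix.mulVec_diagonal, mul_pow]
      linear_combination (u j * v j ^ q) * hd j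
    · intro i
      have e1 : Φ.e i = su2_vec n ζ i := rfl
      have e2 : Φ.f i = su2_vec n ζ' i := rfl
      constructor
      · rw [← Matrix.mulVec_mulVec, e1, hDv, ← e1, (hA₁ i).1]
        have := hspan_e i 1
        rwa [one_smul] at this
      · rw [← Matrix.mulVec_mulVec, e2, hDv, ← e2, (hA₁ i).2]
        have := hspan_f i 1
        rwa [one_smul] at this

end unitary

end Cfsg.Agent.Lib.Helper72.STB
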