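import Cfsg.Agent.Lib.Helper72.STBST

/-!
# Ladder STB, rung W: the exceptional case `O₄⁺(2) = S₃ wr 2`
-/

set_option autoImplicit false

namespace Cfsg.Agent.Lib.Helper72.STB

open scoped commutatorElement

/-- a finite group mapping onto `S₃` has an irreducible character of degree 2 -/
theorem char_two_of_surj {Q : Type*} [Group Q] [Finite Q] (π : Q →* Equiv.Perm (Fin 3))
    (hπ : Function.Surjective π) : ∃ χ : Q → ℂ, Cfsg.IsIrrCharacter Q χ ∧ χ 1 = 2 := by
  obtain ⟨χ, h1, h2⟩ := steinberg_abstract (G := Q) (Ω := Fin 3) (I := Unit) (A := Bool) π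
    (fun _ _ _ => True) (fun _ => ⟨fun _ => trivial, fun _ => trivial, fun _ _ => trivial⟩)
    (fun _ _ _ _ _ => trivial) 0 {x | x ≠ 0}
    (by
      intro Z hZ h0 x
      by_cases hx : x = 0
      · subst hx
        exact hZ 0 () (fun d' _ hd' => h0 d' hd')
      · exact h0 x hx)
    (by
      intro g hg x hx h
      apply hx
      apply (π g).injective
      rw [h, hg])
    (fun a => if a then 1 else 0) (fun a => if a then -1 else 1) (fun _ a => !a)
    (by intro _ a; cases a <;> simp)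
    (by intro _ a; cases a <;> simp)
    (fun _ _ => trivial) true (by simp)
    (by intro a ha; cases a <;> simp_all)
    (by
      intro x hx
      have hx' : x = 1 ∨ x = 2 := by
        have : x ≠ 0 := hx
        revert this
        fin_cases x <;> simp
      rcases hx' with rfl | rfl
      · exact ⟨1, by simp, by simp⟩
      · obtain ⟨g, hg⟩ := hπ (Equiv.swap 1 2)
        refine ⟨g, ?_, ?_⟩
        · rw [hg]; decide
        · rw [hg]; simp)
    (by
      obtain ⟨g, hg⟩ := hπ (Equiv.swap 0 1)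
      refine ⟨g, ?_⟩
      rw [hg]; simp)
  refine ⟨χ, h1, ?_⟩
  rw [h2]
  have : Nat.card ({x | x ≠ 0} : Set (Fin 3)) = 2 := by
    rw [Nat.card_eq_fintype_card]
    decide
  rw [this]; norm_num

theorem w_center_S3 (z : Equiv.Perm (Fin 3)) (hz : ∀ x, x * z = z * x) : z = 1 := by
  revert z
  decide

theorem wreath_char {O : Type*} [Group O] (hO : Nat.card O = 72) (φ : Equiv.Perm (Fin 3) →* O)
    (hφ : Function.Injective φ) (g : O) (hg : g * g = 1)
    (hcomm : ∀ σ τ, Commute (φ σ) (g * φ τ * g⁻¹))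
    (hdisj : ∀ σ τ, φ σ = g * φ τ * g⁻¹ → σ = 1) :
    ∃ χ : (↥(commutator O) ⧸ Subgroup.center ↥(commutator O)) → ℂ,
      Cfsg.IsIrrCharacter (↥(commutator O) ⧸ Subgroup.center ↥(commutator O)) χ ∧ χ 1 = 2 ∧
      Nat.card (↥(commutator O) ⧸ Subgroup.center ↥(commutator O)) ∣ 18 := by
  classical
  have hfin : Finite O := Nat.finite_of_card_ne_zero (by rw [hO]; norm_num)
  have hginv : g⁻¹ = g := inv_eq_of_mul_eq_one_left hg
  set ψ : Equiv.Perm (Fin 3) →* O := (MulAut.conj g).toMonoidHom.comp φ with hψ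
  have hψa : ∀ τ, ψ τ = g * φ τ * g⁻¹ := fun τ => rfl
  set μ : Equiv.Perm (Fin 3) × Equiv.Perm (Fin 3) →* O :=
    MonoidHom.noncommCoprod φ ψ (fun σ τ => hcomm σ τ) with hμ
  have hμa : ∀ p, μ p = φ p.1 * ψ p.2 := fun p => rfl
  have hψinj : Function.Injective ψ := by
    intro a b hab
    apply hφ
    rw [hψa, hψa] at hab
    exact mul_left_cancel (mul_right_cancel hab)
  have hμinj : Function.Injective μ := by
    rw [injective_iff_map_eq_one]
    rintro ⟨σ, τ⟩ h
    rw [hμa] at h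
    have h1 : φ σ = g * φ τ⁻¹ * g⁻¹ := by
      rw [← hψa, map_inv]
      exact eq_inv_of_mul_eq_one_left h
    have h2 : σ = 1 := hdisj σ τ⁻¹ h1
    subst h2
    simp only [map_one, one_mul] at h
    have h3 : τ = 1 := hψinj (by rw [h, map_one])
    rw [h3]; rfl
  -- conjugation by `g` swaps the factors
  have hswap : ∀ p : Equiv.Perm (Fin 3) × Equiv.Perm (Fin 3), g * μ p * g⁻¹ = μ p.swap := by
    rintro ⟨σ, τ⟩
    rw [hμa, hμa]
    simp only [Prod.swap_prod_mk]
    rw [hψa τ, hψa σ, (hcomm τ σ).eq, hginv]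
    calc g * (φ σ * (g * φ τ * g)) * g = g * φ σ * g * φ τ * (g * g) := by group
      _ = g * φ σ * g * φ τ := by rw [hg, mul_one]
  set N : Subgroup O := μ.range with hN
  have hS3 : Nat.card (Equiv.Perm (Fin 3)) = 6 := by
    rw [Nat.card_eq_fintype_card, Fintype.card_perm]; rfl
  have hNcard : Nat.card N = 36 := by
    rw [← Nat.card_congr (MonoidHom.ofInjective hμinj).toEquiv, Nat.card_prod, hS3]
  have hNidx : N.index = 2 := by
    have := N.card_mul_index
    rw [hNcard, hO] at this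
    omega
  have hgN : g ∉ N := by
    rintro ⟨⟨a, b⟩, hab⟩
    have h1 : ∀ τ, φ (a * τ * a⁻¹) = g * φ τ * g⁻¹ := by
      intro τ
      rw [← hab, hμa]
      simp only [map_mul, map_inv, mul_inv_rev]
      have hc : Commute (φ τ) (ψ b) := hcomm τ b
      have hc' : Commute (φ a) (ψ b) := hcomm a b
      calc φ a * φ τ * (φ a)⁻¹ = φ a * (φ τ * ψ b * (ψ b)⁻¹) * (φ a)⁻¹ := by group
        _ = φ a * (ψ b * φ τ * (ψ b)⁻¹) * (φ a)⁻¹ := by rw [hc.eq]
        _ = φ a * ψ b * φ τ * ((ψ b)⁻¹ * (φ a)⁻¹) := by group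
    have h2 := hdisj _ _ (h1 (Equiv.swap 0 1))
    have h3 : Equiv.swap (0 : Fin 3) 1 = 1 := by
      calc Equiv.swap (0 : Fin 3) 1 = a⁻¹ * (a * Equiv.swap 0 1 * a⁻¹) * a := by group
        _ = 1 := by rw [h2]; group
    exact absurd h3 (by decide)
  -- the sign character
  set sg : Equiv.Perm (Fin 3) × Equiv.Perm (Fin 3) →* ℤˣ :=
    (Equiv.Perm.sign.comp (MonoidHom.fst _ _)) * (Equiv.Perm.sign.comp (MonoidHom.snd _ _)) with hsg
  have hsga : ∀ p, sg p = Equiv.Perm.sign p.1 * Equiv.Perm.sign p.2 := fun p => rfl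
  have hsgsurj : Function.Surjective sg := by
    intro u
    rcases Int.units_eq_one_or u with rfl | rfl
    · exact ⟨1, map_one _⟩
    · refine ⟨(Equiv.swap 0 1, 1), ?_⟩
      rw [hsga]
      simp
  have hkcard : Nat.card sg.ker = 18 := by
    have h1 := sg.ker.card_mul_index
    rw [Subgroup.index_ker, MonoidHom.range_eq_top.2 hsgsurj, Subgroup.card_top, Nat.card_prod, hS3,
      Nat.card_eq_fintype_card (α := ℤˣ), Fintype.card_units_int] at h1
    omega
  set E : Subgroup O := sg.ker.map μ with hE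
  have hEcard : Nat.card E = 18 := by
    rw [hE, Subgroup.card_map_of_injective hμinj, hkcard]
  have hEN : E ≤ N := by
    rintro _ ⟨p, _, rfl⟩
    exact ⟨p, rfl⟩
  have hEnorm : E.Normal := by
    constructor
    rintro _ ⟨p, hp, rfl⟩ x
    have hp' : sg p = 1 := hp
    by_cases hx : x ∈ N
    · obtain ⟨r, rfl⟩ := hx
      refine ⟨r * p * r⁻¹, ?_, by simp⟩
      exact sg.normal_ker.conj_mem p hp r
    · have hxg : x * g ∈ N := (Subgroup.mul_mem_iff_of_index_two hNidx).2 (by simp [hx, hgN])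
      obtain ⟨r, hr⟩ := hxg
      have hx' : x = μ r * g⁻¹ := by rw [hr]; group
      refine ⟨r * p.swap * r⁻¹, ?_, ?_⟩
      · apply sg.normal_ker.conj_mem
        show sg p.swap = 1
        rw [hsga, Prod.fst_swap, Prod.snd_swap, mul_comm, ← hsga, hp']
      · rw [map_mul, map_mul, map_inv, ← hswap, hx', hginv]
        have : (μ r * g)⁻¹ = g * (μ r)⁻¹ := by rw [mul_inv_rev, hginv]
        rw [this]
        group
  have hEidx : Nat.card (O ⧸ E) = 2 ^ 2 := by
    have := E.card_mul_index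
    rw [hEcard, hO] at this
    rw [← Subgroup.index_eq_card]
    omega
  have hcomE : commutator O ≤ E := by
    rw [← Subgroup.Normal.quotient_commutative_iff_commutator_le]
    have : Fact (Nat.Prime 2) := ⟨Nat.prime_two⟩
    exact IsPGroup.isMulCommutative_of_card_eq_prime_sq hEidx
  -- the projection
  set e := MonoidHom.ofInjective hμinj with he
  set π : ↥(commutator O) →* Equiv.Perm (Fin 3) :=
    (MonoidHom.fst _ _).comp (e.symm.toMonoidHom.comp (Subgroup.inclusion (hcomE.trans hEN))) with hπ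
  have hπa : ∀ (p : Equiv.Perm (Fin 3) × Equiv.Perm (Fin 3)) (hp : μ p ∈ commutator O),
      π ⟨μ p, hp⟩ = p.1 := by
    intro p hp
    have h1 : e.symm (Subgroup.inclusion (hcomE.trans hEN) ⟨μ p, hp⟩) = p := by
      rw [MulEquiv.symm_apply_eq]
      apply Subtype.ext
      rw [he, MonoidHom.ofInjective_apply]
      rfl
    show (e.symm (Subgroup.inclusion (hcomE.trans hEN) ⟨μ p, hp⟩)).1 = p.1
    rw [h1]
  have hπsurj : Function.Surjective π := by
    intro σ
    have h1 : ⁅φ σ, g⁆ = μ (σ, σ⁻¹) := by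
      rw [commutatorElement_def, hμa, hψa]
      simp only [map_inv]
      group
    have h2 : μ (σ, σ⁻¹) ∈ commutator O := by
      rw [← h1]
      exact Subgroup.commutator_mem_commutator (Subgroup.mem_top _) (Subgroup.mem_top _)
    exact ⟨⟨_, h2⟩, hπa _ h2⟩
  have hπcen : ∀ z ∈ Subgroup.center ↥(commutator O), π z = 1 := by
    intro z hz
    apply w_center_S3
    intro x
    obtain ⟨y, rfl⟩ := hπsurj x
    rw [← map_mul, ← map_mul, (Subgroup.mem_center_iff.1 hz y)]
  set π' : (↥(commutator O) ⧸ Subgroup.center ↥(commutator O)) →* Equiv.Perm (Fin 3) :=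
    QuotientGroup.lift _ π hπcen with hπ'
  have hπ'surj : Function.Surjective π' := by
    intro σ
    obtain ⟨y, rfl⟩ := hπsurj σ
    exact ⟨(y : ↥(commutator O) ⧸ Subgroup.center ↥(commutator O)), rfl⟩
  obtain ⟨χ, h1, h2⟩ := char_two_of_surj π' hπ'surj
  refine ⟨χ, h1, h2, ?_⟩
  refine (Subgroup.card_quotient_dvd_card _).trans ?_
  rw [← hEcard]
  exact Subgroup.card_dvd_of_le hcomE

end Cfsg.Agent.Lib.Helper72.STB
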